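import Cfsg.Agent.H63.AnDefs

/-!
# A standard subgroup of type `Aₙ`: the pieces

Project AN.  Definitions and piece statements.  The paper proofs are in `stubs/notes/h63_an.md`.
-/

set_option autoImplicit false
set_option linter.unusedSectionVars false

namespace Cfsg.Agent.H63.AN

open Cfsg Cfsg.Agent.H63 Cfsg.Agent.H63.SL Subgroup
open Cfsg.Agent.H7.AA (ev d2 Acts KA NA)
open Cfsg.Agent.H78 (c3 altOn symOn)
open Equiv (swap Perm)
open Equiv.Perm (sign)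
open scoped commutatorElement

universe u

/-! ### Permutations -/

section Perm

variable {α : Type} [Fintype α] [DecidableEq α]

/-- The centraliser of `p` in the alternating group. -/
def CA (p : Perm α) : Subgroup (Perm α) := centralizer {p} ⊓ alternatingGroup α

/-- The even products of the transpositions of the involution `p`. -/
def PP (p : Perm α) : Set (Perm α) := {q | sign q = 1 ∧ ∀ x, q x = x ∨ q x = p x}

/-- The product of the two transpositions of `p` through `x` and `y`. -/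
def wc (p : Perm α) (x y : α) : Perm α := d2 x (p x) y (p y)

/-- The double transposition interchanging the two transpositions of `p` through `x` and `y`. -/
def sc (p : Perm α) (x y : α) : Perm α := d2 x y (p x) (p y)

/-- `x` and `y` lie in different transpositions of `p`. -/
def Two (p : Perm α) (x y : α) : Prop := p x ≠ x ∧ p y ≠ y ∧ y ≠ x ∧ y ≠ p x

/-- One half of a twist: `φ` reads the centraliser of `p` in the second frame. -/
structure Tw1 (p p' : Perm α) (φ φ' : Perm α → Perm α) (T : ℕ → Prop) : Prop where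
  p2 : p * p = 1
  p1 : p ≠ 1
  pe : sign p = 1
  mul : ∀ a ∈ CA p, ∀ b ∈ CA p, φ (a * b) = φ a * φ b
  cm : ∀ a ∈ CA p, Commute (φ a) p'
  pp : φ p = p'
  inj : ∀ a ∈ CA p, a * a = 1 → φ a = 1 → a = 1
  cp : ∀ a ∈ CA p, ∀ b ∈ CA p', φ (φ' b * a * (φ' b)⁻¹) = b * φ a * b⁻¹
  inv : ∀ a ∈ ⁅CA p, CA p⁆, a * a = 1 → φ' (φ a) = a
  cl : ∀ a ∈ CA p, a * a = 1 → sign (φ a) = 1 →
    (φ' (φ a) = a ∧ (T (p * a).support.card ↔ T (φ a).support.card)) ∨
      (φ' (φ a) = p * a ∧ ¬ T (p * a).support.card ∧ ¬ T (φ a).support.card)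

/-- A twist. -/
def Tw (p p' : Perm α) (φ φ' : Perm α → Perm α) (T : ℕ → Prop) : Prop :=
  Tw1 p p' φ φ' T ∧ Tw1 p' p φ' φ T

/-- `φ` respects pairs of columns. -/
def Nat2 (p p' : Perm α) (φ : Perm α → Perm α) : Prop :=
  ∀ x y, Two p x y → ∃ x' y', Two p' x' y' ∧ φ (wc p x y) = wc p' x' y' ∧
    ∀ e, p' e ≠ e → φ (sc p x y) e = sc p' x' y' e ∨ φ (sc p x y) e = p' (sc p' x' y' e)

/-- Permutations of ten named points. -/
noncomputable def em (x : Fin 10 ↪ α) : Perm (Fin 10) →* Perm α := Equiv.Perm.viaEmbeddingHom x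

/-- `g` or `1`. -/
def pw {M : Type*} [One M] (b : Bool) (g : M) : M := if b then g else 1

def t3 : Perm (Fin 10) := swap 4 5
def t4 : Perm (Fin 10) := swap 6 7
def s0 : Perm (Fin 10) := swap 8 9
def ww : Perm (Fin 10) := swap 0 1 * swap 2 3
def vv : Perm (Fin 10) := swap 4 5 * swap 6 7
def zz : Perm (Fin 10) := ww * vv
def s12 : Perm (Fin 10) := swap 0 2 * swap 1 3
def s23 : Perm (Fin 10) := swap 2 4 * swap 3 5
def s34 : Perm (Fin 10) := swap 4 6 * swap 5 7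
def yy : Perm (Fin 10) := t4 * s0

/-- `b` commutes with `p` and acts on `PP p` as `a` does. -/
def Like (p a b : Perm α) : Prop := Commute b p ∧ ∀ q ∈ PP p, b * q * b⁻¹ = a * q * a⁻¹

/-- A normalised twist of an involution of type four. -/
structure Tw4 (x : Fin 10 ↪ α) (φ φ' : Perm α → Perm α) (T : ℕ → Prop) : Prop where
  tw : Tw (em x zz) (em x zz) φ φ' T
  id : ∀ q ∈ PP (em x zz), φ q = q
  y8 : T 8
  n4 : ¬ T 4

/-- Four further points. -/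
def Four (x : Fin 10 ↪ α) (a b c d : α) : Prop :=
  [a, b, c, d].Nodup ∧ ∀ i, x i ≠ a ∧ x i ≠ b ∧ x i ≠ c ∧ x i ≠ d

theorem em_apply (x : Fin 10 ↪ α) (a : Perm (Fin 10)) (i : Fin 10) : em x a (x i) = x (a i) :=
  Equiv.Perm.viaEmbedding_apply a x i

theorem em_of_not (x : Fin 10 ↪ α) (a : Perm (Fin 10)) {e : α} (h : ∀ i, x i ≠ e) :
    em x a e = e :=
  Equiv.Perm.viaEmbedding_apply_of_notMem a x e (by rintro ⟨i, rfl⟩; exact h i rfl)

theorem em_inj (x : Fin 10 ↪ α) : Function.Injective (em x) :=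
  Equiv.Perm.viaEmbeddingHom_injective x

theorem em_swap (x : Fin 10 ↪ α) (i j : Fin 10) : em x (swap i j) = swap (x i) (x j) := by
  ext e
  by_cases h : ∃ k, x k = e
  · obtain ⟨k, rfl⟩ := h
    rw [em_apply, x.injective.swap_apply]
  · push Not at h
    rw [em_of_not x _ h, Equiv.swap_apply_of_ne_of_ne (h i).symm (h j).symm]

theorem sign_em (x : Fin 10 ↪ α) (a : Perm (Fin 10)) : sign (em x a) = sign a := by
  induction a using Equiv.Perm.swap_induction_on with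
  | one => simp
  | swap_mul f i j hij ih =>
    rw [map_mul, em_swap, Equiv.Perm.sign_mul, Equiv.Perm.sign_mul, ih,
      Equiv.Perm.sign_swap hij, Equiv.Perm.sign_swap (x.injective.ne hij)]

theorem support_em (x : Fin 10 ↪ α) (a : Perm (Fin 10)) : (em x a).support = a.support.map x := by
  ext e
  simp only [Equiv.Perm.mem_support, Finset.mem_map]
  by_cases h : ∃ k, x k = e
  · obtain ⟨k, rfl⟩ := h
    rw [em_apply]
    exact ⟨fun h => ⟨k, fun e => h (by rw [e]), rfl⟩, fun ⟨l, hl, e⟩ h =>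
      hl (by rw [x.injective e]; exact x.injective h)⟩
  · push Not at h
    exact ⟨fun h' => (h' (em_of_not x a h)).elim, fun ⟨l, _, e⟩ => (h l e).elim⟩

theorem card_em (x : Fin 10 ↪ α) (a : Perm (Fin 10)) :
    (em x a).support.card = a.support.card := by rw [support_em, Finset.card_map]

theorem mem_CA {p a : Perm α} : a ∈ CA p ↔ Commute a p ∧ sign a = 1 := by
  rw [CA, mem_inf, mem_centralizer_singleton_iff, Equiv.Perm.mem_alternatingGroup]; rfl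

end Perm

/-- A statement about permutations of a finite type. -/
def PAll (P : ∀ (α : Type) [Fintype α] [DecidableEq α], Prop) : Prop :=
  ∀ (α : Type) [Fintype α] [DecidableEq α], P α

/-- **NAT** -/
def NatStmt : Prop := PAll fun α _ _ => ∀ (S T : Finset α) (φ : altOn S →* Perm α) (q : Perm α),
  Function.Injective φ → 5 ≤ S.card → T.card < 2 * S.card → (∀ σ, φ σ ∈ symOn T) →
  q ∈ symOn T → q * q = 1 → (∀ σ, Commute (φ σ) q) →
  (∀ σ, φ σ ∈ altOn (T \ q.support)) ∧ S.card + q.support.card ≤ T.card ∧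
    (S.card + q.support.card = T.card → φ.range = altOn (T \ q.support))

/-- **AUT** -/
def AutStmt : Prop := PAll fun α _ _ => ∀ (S : Finset α) (φ : altOn S →* Perm α),
  Function.Injective φ → 5 ≤ S.card → φ.range = altOn S →
  (∃ ρ ∈ symOn S, ∀ σ : altOn S, φ σ = ρ * σ * ρ⁻¹) ∨
    (S.card = 6 ∧ ∀ σ : altOn S, (σ : Perm α).IsThreeCycle → (φ σ).support.card = 6)

/-- **KP** -/
def KpStmt : Prop := PAll fun α _ _ => 9 ≤ Fintype.card α →
  (∀ p q : Perm α, p * p = 1 → q * q = 1 → p.support.card = q.support.card →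
    ∃ a : Perm α, sign a = 1 ∧ a * p * a⁻¹ = q) ∧
  (∀ p : Perm α, p * p = 1 → sign p = 1 → ∀ q ∈ PP p, q ∈ ⁅CA p, CA p⁆)

/-- **E3P** -/
def E3pStmt : Prop := PAll fun α _ _ => 10 ≤ Fintype.card α →
  ∀ p : Perm α, p * p = 1 → 6 ≤ p.support.card →
    ∃ r ∈ ⁅CA p, CA p⁆, r ≠ 1 ∧ r * r = 1 ∧ (r * p).support.card = p.support.card

/-- **P6A** -/
def P6aStmt : Prop := PAll fun α _ _ => 9 ≤ Fintype.card α →
  ∀ (p p' : Perm α) φ φ' T, Tw p p' φ φ' T → 12 ≤ p.support.card →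
    p.support.card ≤ p'.support.card → p'.support.card = p.support.card ∧ φ '' PP p = PP p'

/-- **P6B** -/
def P6bStmt : Prop := PAll fun α _ _ => 9 ≤ Fintype.card α →
  ∀ (p p' : Perm α) φ φ' T, Tw1 p p' φ φ' T → p' * p' = 1 → 12 ≤ p.support.card →
    12 ≤ p'.support.card → φ '' PP p = PP p' → Nat2 p p' φ

/-- **P6C** -/
def P6cStmt : Prop := PAll fun α _ _ => 9 ≤ Fintype.card α →
  ∀ (p p' : Perm α) φ φ' T, Tw p p' φ φ' T → 12 ≤ p.support.card →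
    p'.support.card = p.support.card → φ '' PP p = PP p' → φ' '' PP p' = PP p →
    Nat2 p p' φ → Nat2 p' p φ' → T p.support.card → T 8

/-- **P4A** -/
def P4aStmt : Prop := PAll fun α _ _ => 9 ≤ Fintype.card α →
  ∀ (p p' : Perm α) φ φ' T, Tw p p' φ φ' T → p.support.card = 8 → p'.support.card < 12

/-- **P4B** -/
def P4bStmt : Prop := PAll fun α _ _ => 9 ≤ Fintype.card α →
  ∀ (p : Perm α) φ φ' T, Tw p p φ φ' T → p.support.card = 8 → T 8 → ¬ T 4 →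
    ∃ c ∈ CA p, ∀ q ∈ PP p, φ q = c * q * c⁻¹

/-- **P4D** -/
def P4dStmt : Prop := PAll fun α _ _ => ∀ x : Fin 10 ↪ α,
  (∀ b b3 : Perm α, Like (em x zz) (em x s12) b → b * b = 1 → Like (em x zz) (em x s34) b3 →
    Commute b b3 → ∃ ε δ : Bool, ∃ σ ∈ symOn (em x zz).supportᶜ,
      b = em x (s12 * pw ε ww * pw δ vv) * σ) ∧
  (∀ b b1 b2 b3 : Perm α, Like (em x zz) 1 b → Like (em x zz) (em x s12) b1 →
    Like (em x zz) (em x s23) b2 → Like (em x zz) (em x s34) b3 → Commute b b1 → Commute b b2 →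
    ∃ r i : Bool, ∃ σ ∈ symOn (em x zz).supportᶜ, b = em x (pw r t4 * pw i zz) * σ ∧
      (r = true ↔ ⁅b, b3⁆ ∉ symOn (em x zz).supportᶜ))

/-- **P4E** -/
def P4eStmt : Prop := PAll fun α _ _ => ∀ (x : Fin 10 ↪ α) φ φ' T, Tw4 x φ φ' T →
  (∀ a ∈ CA (em x zz), Like (em x zz) a (φ a)) ∧
  (∃ ε δ : Bool, ∃ σ ∈ symOn (em x zz).supportᶜ,
    φ (em x s12) = em x (s12 * pw ε ww * pw δ vv) * σ ∧ (11 ≤ Fintype.card α → σ = 1) ∧
    (σ = 1 → δ = true ∧ φ' (φ (em x s12)) = em x s12)) ∧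
  (∃ i : Bool, ∃ σ ∈ symOn (em x zz).supportᶜ, σ * σ = 1 ∧
    φ (em x yy) = em x (t4 * pw i zz) * σ ∧
    (σ.IsSwap → i = true ∧ φ' (φ (em x yy)) = em x yy))

/-- **P4F** -/
def P4fStmt : Prop := PAll fun α _ _ => ∀ (x : Fin 10 ↪ α) φ φ' T, Tw4 x φ φ' T →
  11 ≤ Fintype.card α →
  (Fintype.card α = 11 → ∀ c ∈ altOn (em x zz).supportᶜ, c ≠ 1 → φ c ≠ 1) →
  φ' (φ (em x yy)) = em x yy ∧ ∃ a ∈ altOn (em x zz).supportᶜ,
    a * φ (em x yy) * a⁻¹ = em x (yy * zz) ∨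
    (¬ T 12 ∧ ∃ e1 e2 e3 e4, Four x e1 e2 e3 e4 ∧
      a * φ (em x yy) * a⁻¹ = em x yy * d2 e1 e2 e3 e4 ∧
      a * φ (d2 e1 e2 e3 e4) * a⁻¹ = d2 e1 e2 e3 e4 ∧
      φ' (φ (d2 e1 e2 e3 e4)) = d2 e1 e2 e3 e4)

/-! ### Groups -/

section Group

variable {G : Type u} [Group G] {α : Type} [Fintype α] [DecidableEq α]

/-- The image of the alternating group on `S`. -/
def LS (ψ : alternatingGroup α →* G) (S : Finset α) : Subgroup G :=
  ((altOn S).subgroupOf (alternatingGroup α)).map ψ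

theorem mem_LS {ψ : alternatingGroup α →* G} {S : Finset α} {g : G} :
    g ∈ LS ψ S ↔ ∃ σ ∈ altOn S, ev ψ σ = g := by
  constructor
  · rintro ⟨σ, hσ, rfl⟩; exact ⟨σ, hσ, H7.AA.ev_coe σ⟩
  · rintro ⟨σ, hσ, rfl⟩
    exact ⟨⟨σ, hσ.2⟩, hσ, (H7.AA.ev_coe (ψ := ψ) ⟨σ, hσ.2⟩).symm⟩

/-- The configuration before `R2`. -/
structure Pre (ψ : alternatingGroup α →* G) (t : G) : Prop where
  nine : 9 ≤ Fintype.card α
  inj : Function.Injective ψ
  t2 : t * t = 1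
  t1 : t ≠ 1
  tK : t ∈ KA ψ
  cN : ∀ g, Commute g t → g ∈ NA ψ
  cyc : Cyc ψ.range

/-- A section over the symmetric group. -/
structure Sec (ψ : alternatingGroup α →* G) (t : G) (j : Perm α →* G) : Prop where
  ev : ∀ σ, sign σ = 1 → j σ = ev ψ σ
  cm : ∀ σ, Commute (j σ) t
  ac : ∀ σ, Acts ψ (j σ) σ

/-- Case I. -/
structure CI (ψ : alternatingGroup α →* G) (t : G) (j : Perm α →* G) : Prop where
  sec : Sec ψ t j
  p1 : P1 ψ t
  cj : ∀ a b, a ≠ b → IsConj t (j (swap a b))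
  i0 : ∀ a b, a ≠ b → ¬ IsConj t (t * j (swap a b))
  dm : ∀ a b, a ≠ b → ∀ e, IsConj t e → Commute e t → Commute e (j (swap a b)) →
    e = t ∨ ∃ c d, c ≠ d ∧ e = j (swap c d)

/-- The four-group in the centraliser of `A = Alt({a,b}ᶜ)`, with `d = j (a b)`, `u = t d`. -/
structure V4 (X A : Subgroup G) (t d w y : G) : Prop where
  wX : w ∈ X
  wA : w ∈ C[A]
  w2 : w * w = 1
  wt : w * t * w⁻¹ = d
  yA : y ∈ N[A]
  yu : y * (t * d) * y⁻¹ = w
  yw : y * w * y⁻¹ = w * (t * d)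

/-- A double transposition inside `Q`. -/
def InQ (Q : Finset α) (w : Perm α) : Prop := IsD2 w ∧ w ∈ symOn Q

/-- The wreath base over the set `Q`. -/
structure Loc (ψ : alternatingGroup α →* G) (t : G) (Q : Finset α) (f : Perm α → G) : Prop where
  sq : ∀ w, InQ Q w → f w * f w = 1
  ft : ∀ w, InQ Q w → f w * t * (f w)⁻¹ = t * ev ψ w
  eqv : ∀ w, InQ Q w → ∀ a ∈ altOn Q, ev ψ a * f w * (ev ψ a)⁻¹ = f (a * w * a⁻¹)
  mul : ∀ v v', InQ Q v → InQ Q v' → InQ Q (v * v') → Commute v v' → f (v * v') = f v * f v'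
  com : ∀ w w', InQ Q w → InQ Q w' → Commute (f w) (f w' * ev ψ w')
  cO : ∀ w, InQ Q w → ∀ k ∈ KA ψ, Commute k t → Odd (orderOf k) → Commute (f w) k

/-- The canonical involutions over `w`. -/
structure Can (ψ : alternatingGroup α →* G) (t : G) (w : Perm α) (g : G) : Prop where
  sq : g * g = 1
  gt : g * t * g⁻¹ = t * ev ψ w
  cA : ∀ a ∈ CA w, Commute g (ev ψ a)
  cO : ∀ k ∈ KA ψ, Commute k t → Odd (orderOf k) → Commute g k

/-- The configuration on seven points. -/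
structure S7 (χ : alternatingGroup α →* G) (t : G) : Prop where
  seven : Fintype.card α = 7
  inj : Function.Injective χ
  t2 : t * t = 1
  t1 : t ≠ 1
  tK : t ∈ KA χ
  cN : ∀ g, Commute g t → g ∈ NA χ
  r2 : ∀ k ∈ KA χ, Commute k t → Is2 k → k = 1 ∨ k = t
  sw : ∀ w, IsD2 w → ∃ g, g * t * g⁻¹ = t * ev χ w ∧ Commute g (ev χ w)

/-- `χ` is the diagonal of `φ` and `φ ^ t`. -/
structure Dg (χ : alternatingGroup α →* G) (t : G) (φ : alternatingGroup α →* G) : Prop where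
  dg : ∀ σ, χ σ = φ σ * (t * φ σ * t)
  cm : ∀ σ τ, Commute (φ σ) (t * φ τ * t)
  le : φ.range ≤ normalClosure (χ.range : Set G)
  cO : ∀ k ∈ KA χ, Commute k t → Odd (orderOf k) → ∀ σ, Commute k (φ σ)

/-- `t` is conjugate to `t p` for an even involution `p` moving `m` points; `TE k = TS (2 k)`. -/
def TS (ψ : alternatingGroup α →* G) (t : G) (m : ℕ) : Prop :=
  ∃ p : Perm α, p * p = 1 ∧ sign p = 1 ∧ p.support.card = m ∧ IsConj t (t * ev ψ p)

/-- The twist of the pair `t`, `g t g⁻¹ = t p`. -/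
structure TwG (ψ : alternatingGroup α →* G) (t g : G) (p p' : Perm α)
    (φ φ' : Perm α → Perm α) : Prop where
  tw : Tw p p' φ φ' (TS ψ t)
  gt : g * t * g⁻¹ = t * ev ψ p
  gp : g * ev ψ p' * g⁻¹ = ev ψ p
  a1 : ∀ a ∈ CA p, Acts ψ (g⁻¹ * ev ψ a * g) (φ a)
  a2 : ∀ b ∈ CA p', Acts ψ (g * ev ψ b * g⁻¹) (φ' b)
  ex : ∀ a ∈ CA p, a * a = 1 → sign (φ a) = 1 → φ' (φ a) = a → g⁻¹ * ev ψ a * g = ev ψ (φ a)
  ts : TS ψ t p'.support.card

/-- The normal form on `t`, `w`, `v`. -/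
structure N0 (ψ : alternatingGroup α →* G) (t g : G) (x : Fin 10 ↪ α) : Prop where
  gt : g * t * g⁻¹ = t * ev ψ (em x zz)
  gw : g * ev ψ (em x ww) * g⁻¹ = ev ψ (em x ww)
  gv : g * ev ψ (em x vv) * g⁻¹ = ev ψ (em x vv)

/-- The even normal form. -/
structure NE (ψ : alternatingGroup α →* G) (t g : G) (x : Fin 10 ↪ α) : Prop where
  n0 : N0 ψ t g x
  gs : ∃ ε : Bool, g * ev ψ (em x s12) * g⁻¹ = ev ψ (em x (s12 * pw ε ww * vv))
  gy : g * ev ψ (em x yy) * g⁻¹ = ev ψ (em x (yy * zz))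

/-- The exotic normal form. -/
structure NX (ψ : alternatingGroup α →* G) (t g : G) (x : Fin 10 ↪ α) (a b c d : α) : Prop where
  n0 : N0 ψ t g x
  four : Four x a b c d
  gs : ∃ ε : Bool, g * ev ψ (em x s12) * g⁻¹ = ev ψ (em x (s12 * pw ε ww * vv))
  gy : g * ev ψ (em x yy) * g⁻¹ = ev ψ (em x yy) * ev ψ (d2 a b c d)
  gu : g * ev ψ (d2 a b c d) * g⁻¹ = ev ψ (d2 a b c d)
  n12 : ¬ TS ψ t 12

/-- The split normal form. -/
structure NO (ψ : alternatingGroup α →* G) (t g : G) (x : Fin 10 ↪ α) (j : Perm α →* G) :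
    Prop where
  n0 : N0 ψ t g x
  sec : Sec ψ t j
  gs : ∃ a ε δ l : Bool,
    g * j (em x s12) * g⁻¹ = pw a t * j (em x (s12 * pw ε ww * pw δ vv * pw l s0))
  g4 : ∃ a i l : Bool, g * j (em x t4) * g⁻¹ = pw a t * j (em x (t4 * pw i zz * pw l s0))
  g0 : ∃ a i l : Bool, g * j (em x s0) * g⁻¹ = pw a t * j (em x (pw i zz * pw l s0))

end Group

/-- A statement about a frame and an element. -/
def GAll (P : ∀ {G : Type u} [Group G] {α : Type} [Fintype α] [DecidableEq α]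
    (_ : alternatingGroup α →* G) (_ : G), Prop) : Prop :=
  ∀ {G : Type u} [Group G] [Finite G] {α : Type} [Fintype α] [DecidableEq α]
    (ψ : alternatingGroup α →* G) (t : G), P ψ t

/-- **R2B** -/
def R2bStmt : Prop := GAll.{u} fun ψ t => Pre ψ t → ∀ u ∈ KA ψ, u * u = t →
  ∀ d, IsConj t d → Commute d t → d ≠ t → ¬ Commute d u

/-- **R2C** -/
def R2Stmt : Prop := GAll.{u} fun ψ t => Pre ψ t →
  (∃ d, IsConj t d ∧ Commute d t ∧ d ≠ t) → Bs ψ t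

/-- **SEC** -/
def SecStmt : Prop := All.{u} fun ψ t => ∀ d ρ, Commute d t → d * d = 1 → Acts ψ d ρ →
  sign ρ ≠ 1 → ∃ j, Sec ψ t j ∧ j ρ = d

/-- **CI0** -/
def Ci0Stmt : Prop := All.{u} fun ψ t => P1 ψ t → (∃ d ρ, D1 ψ t d ρ) →
  ∃ j, CI ψ t j ∧ ∀ g, CI (H7.AA.cj g ψ) (g * t * g⁻¹) ((MulAut.conj g).toMonoidHom.comp j)

/-- A statement about case I, for the transposition `(a b)`. -/
def IAll (P : ∀ {G : Type u} [Group G] {α : Type} [Fintype α] [DecidableEq α]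
    (_ : alternatingGroup α →* G) (_ : G) (_ : Perm α →* G) (_ _ : α), Prop) : Prop :=
  All.{u} fun ψ t => ∀ j, CI ψ t j →
    (∀ g, CI (H7.AA.cj g ψ) (g * t * g⁻¹) ((MulAut.conj g).toMonoidHom.comp j)) →
    ∀ a b, a ≠ b → P ψ t j a b

/-- **I1** -/
def I1Stmt : Prop := IAll.{u} fun ψ t _ _ _ => ∀ X, Gl X ψ t → t ∉ X

/-- **I2** -/
def I2Stmt : Prop := IAll.{u} fun _ t j a b => ∀ e, IsConj t e → e * t * e⁻¹ ≠ j (swap a b)

/-- **ZS** -/
def ZsStmt : Prop := ∀ {G : Type u} [Group G] [Finite G] (t u : G), t * t = 1 → u * u = 1 →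
  t ≠ 1 → u ≠ 1 → t ≠ u → Commute t u →
  (∀ c, Commute c u → ⁅c * t * c⁻¹, t⁆ = 1 ∨ ⁅c * t * c⁻¹, t⁆ = u →
    c * t * c⁻¹ = t ∨ c * t * c⁻¹ = t * u) →
  ∀ c, Commute c u → ∃ y ∈ centralizerPPrimeCore 2 u,
    (y * c) * t * (y * c)⁻¹ = t ∨ (y * c) * t * (y * c)⁻¹ = t * u

/-- **BC** -/
def BcStmt : Prop := ∀ {G : Type u} [Group G] [Finite G], oddCore G = ⊥ → HasBProperty G →
  ∀ (u : G) (A : Subgroup G), orderOf u = 2 → A ≤ C1[u] → IsSimpleGroup A →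
    ¬ IsMulCommutative A → Even (Nat.card A) →
    (∀ c ∈ C1[u], ∃ y ∈ centralizerPPrimeCore 2 u, y * c ∈ N[A]) → C1[u] ≤ N[A]

/-- **I3** -/
def I3Stmt : Prop := IAll.{u} fun ψ t j a b => ∀ X, Gl X ψ t →
  C1[t * j (swap a b)] ≤ N[LS ψ {a, b}ᶜ]

/-- **I4** -/
def I4Stmt : Prop := IAll.{u} fun ψ t j a b => ∀ X, Gl X ψ t →
  ∃ w y, V4 X (LS ψ {a, b}ᶜ) t (j (swap a b)) w y

/-- **I5** -/
def I5Stmt : Prop := IAll.{u} fun {G} _ _ _ _ ψ t j a b => ∀ X, Gl X ψ t →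
  (∀ P : Subgroup G, P ≤ C[LS ψ {a, b}ᶜ] → IsPGroup 2 P → Nat.card P ≤ 8) ∧
    ∀ e ∈ X, e ∈ C[LS ψ {a, b}ᶜ] → e * e = 1 → e ≠ 1 →
      ∃ c ∈ N[LS ψ {a, b}ᶜ], c * (t * j (swap a b)) * c⁻¹ = e

/-- **I6** -/
def I6Stmt : Prop := IAll.{u} fun {_} _ {α} _ _ ψ t _ _ _ => ∀ X, Gl X ψ t →
  10 ≤ Fintype.card α → Nonempty (X ≃* alternatingGroup (Fin (Fintype.card α + 2)))

/-- **NRM** -/
def NrmStmt : Prop := All.{u} fun ψ t => ∀ g a b c d, Sw ψ t g a b c d →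
  g ∈ N[LS ψ {a, b, c, d}ᶜ]

/-- **SW0** -/
def Sw0Stmt : Prop := All.{u} fun ψ t => TE ψ t 2 → ∃ g a b c d, Sw ψ t g a b c d

/-- **SWP** -/
def SwpStmt : Prop := All.{u} fun ψ t => TE ψ t 2 → SwC ψ t ∨ SwX ψ t

/-- **W7A** -/
def W7aStmt : Prop := GAll.{u} fun {G} _ _ _ _ χ t => S7 χ t → oddCore G = ⊥ →
  Nonempty (normalClosure (χ.range : Set G) ≃*
    alternatingGroup (Fin 7) × alternatingGroup (Fin 7))

/-- **W7B** -/
def W7bStmt : Prop := GAll.{u} fun {G} _ _ _ _ χ t => S7 χ t →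
  Nonempty (normalClosure (χ.range : Set G) ≃*
    alternatingGroup (Fin 7) × alternatingGroup (Fin 7)) → ∃ φ, Dg χ t φ

/-- **W7Y** -/
def W7yStmt : Prop := GAll.{u} fun {G} _ _ _ _ χ t => S7 χ t →
  ∀ Y : Subgroup G, Y.Normal → Odd (Nat.card Y) → Y ≤ KA χ

/-- **W7Q** -/
def W7qStmt : Prop := GAll.{u} fun {G} _ _ _ _ χ t => S7 χ t →
  ∀ (Y : Subgroup G) [Y.Normal], Odd (Nat.card Y) →
    S7 ((QuotientGroup.mk' Y).comp χ) (QuotientGroup.mk' Y t)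

/-- **W7L** -/
def W7lStmt : Prop := GAll.{u} fun {G} _ _ _ _ χ t => S7 χ t →
  ∀ (Y : Subgroup G) [Y.Normal], Odd (Nat.card Y) → Y ≤ KA χ →
    ∀ φ, Dg ((QuotientGroup.mk' Y).comp χ) (QuotientGroup.mk' Y t) φ →
    ∃ f, Loc χ t Finset.univ f

/-- The theorem on seven points (assembled from the five pieces above). -/
def W7Stmt : Prop := GAll.{u} fun χ t => S7 χ t → ∃ f, Loc χ t Finset.univ f

/-- **LOC** -/
def LocStmt : Prop := All.{u} fun {_} _ {α} _ _ ψ t => 10 ≤ Fintype.card α → SwC ψ t →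
  ∀ Q : Finset α, Q.card = 7 → ∃ f, Loc ψ t Q f

/-- **CAN** -/
def CanStmt : Prop := All.{u} fun {_} _ {α} _ _ ψ t => ∀ Q : Finset α, Q.card = 7 →
  ∀ f, Loc ψ t Q f → ∀ w, InQ Q w → Can ψ t w (f w)

/-- **UNI** -/
def UniStmt : Prop := All.{u} fun ψ t => ∀ w, IsD2 w → ∀ g g', Can ψ t w g → Can ψ t w g' →
  g' = g ∨ g' = g * ev ψ w

/-- **GLUE** -/
def GlueStmt : Prop := All.{u} fun {_} _ {α} _ _ ψ t =>
  (∀ Q : Finset α, Q.card = 7 → ∃ f, Loc ψ t Q f) → ∃ f, WB ψ t f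

/-- **E3** -/
def E3Stmt : Prop := All.{u} fun {_} _ {α} _ _ ψ t => 10 ≤ Fintype.card α → ¬ P1 ψ t →
  ∃ m, m ≠ 0 ∧ TS ψ t m

/-- **TW0** -/
def Tw0Stmt : Prop := All.{u} fun ψ t => ∀ g p, p * p = 1 → p ≠ 1 → sign p = 1 →
  g * t * g⁻¹ = t * ev ψ p → ∃ p' φ φ', TwG ψ t g p p' φ φ'

/-- **NF4** -/
def Nf4Stmt : Prop := All.{u} fun {_} _ {α} _ _ ψ t => 10 ≤ Fintype.card α → TS ψ t 8 →
  ¬ TS ψ t 4 → ∃ g x φ φ', TwG ψ t g (em x zz) (em x zz) φ φ' ∧ Tw4 x φ φ' (TS ψ t)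

/-- A statement about the normalised twist of type four. -/
def FAll (P : ∀ {G : Type u} [Group G] {α : Type} [Fintype α] [DecidableEq α]
    (_ : alternatingGroup α →* G) (_ : G) (_ : Fin 10 ↪ α) (_ : Perm α → Perm α), Prop) : Prop :=
  All.{u} fun ψ t => ∀ g x φ φ', TwG ψ t g (em x zz) (em x zz) φ φ' → Tw4 x φ φ' (TS ψ t) →
    P ψ t x φ

/-- **K3** -/
def K3Stmt : Prop := FAll.{u} fun {_} _ {α} _ _ _ _ x φ => Fintype.card α = 11 →
  ∀ c ∈ altOn (em x zz).supportᶜ, c ≠ 1 → φ c ≠ 1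

/-- **S4E** -/
def S4eStmt : Prop := FAll.{u} fun {_} _ {α} _ _ ψ t x φ =>
  11 ≤ Fintype.card α ∨ (Fintype.card α = 10 ∧ sign (φ (em x s12)) = 1 ∧ sign (φ (em x yy)) = 1) →
    (∃ g, NE ψ t g x) ∨ ∃ g a b c d, NX ψ t g x a b c d

/-- **S4O** -/
def S4oStmt : Prop := FAll.{u} fun {_} _ {α} _ _ ψ t x φ => Fintype.card α = 10 →
  sign (φ (em x s12)) ≠ 1 ∨ sign (φ (em x yy)) ≠ 1 → ∃ g j, NO ψ t g x j

/-- **WE** -/
def WeStmt : Prop := All.{u} fun ψ t => (∀ g x, ¬ NE ψ t g x) ∧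
  ∀ g x a b c d, ¬ NX ψ t g x a b c d

/-- **WO** -/
def WoStmt : Prop := All.{u} fun ψ t => ¬ TS ψ t 4 → ∀ g x j, NO ψ t g x j → T1 ψ t

/-- **HN2** (project HN10) -/
def HN2Stmt : Prop := All.{u} fun {_} _ {α} _ _ ψ t => ∀ X, Gl X ψ t → Fintype.card α = 10 →
  SwX ψ t ∨ (T1 ψ t ∧ TE ψ t 4 ∧ ¬ TE ψ t 2) → Spor.IsoHN X

end Cfsg.Agent.H63.AN
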