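import Cfsg.Agent.H63.SLDefs4
import Cfsg.Agent.H7.AABase
import Cfsg.Prelude.Def_Spor_HN

/-!
# A standard subgroup of type `Aₙ`, `n ≥ 9`, with cyclic Sylow `2`-subgroups of the centraliser

Project AN.  Base definitions.  The paper proofs are in `stubs/notes/h63_an.md`.
-/

set_option autoImplicit false

namespace Cfsg.Agent.H63.AN

open Cfsg Cfsg.Agent.H63 Cfsg.Agent.H63.SL Subgroup
open Cfsg.Agent.H7.AA (ev d2 Acts KA NA)
open Cfsg.Agent.H78 (c3 altOn symOn)
open Equiv (swap Perm)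
open Equiv.Perm (sign)
open scoped commutatorElement

universe u

section Group

variable {G : Type u} [Group G] {α : Type} [Fintype α] [DecidableEq α]

/-- `L = ψ.range` is centralised by the involution `t`, normalised by `C(t)`, and `⟨t⟩` is a Sylow
subgroup of `C(L) ∩ C(t)`. -/
structure Bs (ψ : alternatingGroup α →* G) (t : G) : Prop where
  nine : 9 ≤ Fintype.card α
  inj : Function.Injective ψ
  t2 : t * t = 1
  t1 : t ≠ 1
  tK : t ∈ KA ψ
  cN : ∀ g, Commute g t → g ∈ NA ψ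
  r2 : ∀ k ∈ KA ψ, Commute k t → Is2 k → k = 1 ∨ k = t

/-- Elementary consequences of `Bs`. -/
structure Kit (ψ : alternatingGroup α →* G) (t : G) : Prop where
  act : ∀ g, Commute g t → ∃ ρ, Acts ψ g ρ
  hom : ∃ π : C1[t] →* Perm α, ∀ g, Acts ψ g.1 (π g)
  tn : ∀ σ, ev ψ σ ≠ t
  ev2 : ∀ g ρ, Commute g t → Is2 g → Acts ψ g ρ → sign ρ = 1 → g = ev ψ ρ ∨ g = t * ev ψ ρ
  der : ∀ g ∈ ⁅C1[t], C1[t]⁆, Is2 g → g ∈ ψ.range
  nl : ∀ σ, ¬ IsConj t (ev ψ σ)
  odd : ∃ O : Subgroup G, Odd (Nat.card O) ∧ O ≤ C1[t] ∧ O ≤ KA ψ ∧ C1[t] ≤ N[O] ∧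
    ∀ k ∈ KA ψ, Commute k t → k ∈ O ∨ k * t ∈ O
  /-- involutions of `C(t)` over conjugate permutations -/
  cls : ∀ d ρ, Commute d t → Acts ψ d ρ → ∀ a : Perm α, sign a = 1 →
    ev ψ a * d * (ev ψ a)⁻¹ = ev ψ (a * ρ * a⁻¹ * ρ⁻¹) * d
  /-- two involutions of `Sₙ` moving the same number of points are conjugate under `Aₙ` -/
  typ : ∀ p q : Perm α, p * p = 1 → q * q = 1 → p.support.card = q.support.card →
    ∃ a : Perm α, sign a = 1 ∧ a * p * a⁻¹ = q

/-- The global data. -/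
structure Gl (X : Subgroup G) (ψ : alternatingGroup α →* G) (t : G) : Prop where
  nrm : X.Normal
  simple : IsSimpleGroup X
  cX : C[X] = ⊥
  gen : X ⊔ zpowers t = ⊤
  le : ψ.range ≤ X
  sB : HasStrongBProperty G

/-- `d ≠ t` is a conjugate of `t` commuting with `t` and acting as the permutation `ρ`. -/
structure D1 (ψ : alternatingGroup α →* G) (t d : G) (ρ : Perm α) : Prop where
  cj : IsConj t d
  cm : Commute d t
  ne : d ≠ t
  ac : Acts ψ d ρ

/-- `t` is conjugate to `t` times a product of `k` disjoint transpositions (`k` even). -/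
def TE (ψ : alternatingGroup α →* G) (t : G) (k : ℕ) : Prop :=
  ∃ p : Perm α, p * p = 1 ∧ sign p = 1 ∧ p.support.card = 2 * k ∧ IsConj t (t * ev ψ p)

/-- Some commuting conjugate of `t` acts as a transposition. -/
def T1 (ψ : alternatingGroup α →* G) (t : G) : Prop :=
  ∃ d a b, a ≠ b ∧ D1 ψ t d (swap a b)

/-- Every commuting conjugate of `t` acts as a transposition. -/
def P1 (ψ : alternatingGroup α →* G) (t : G) : Prop :=
  ∀ d ρ, D1 ψ t d ρ → ρ.IsSwap

/-- An element interchanging `t` and `t w`, `w = (a b)(c d)`. -/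
structure Sw (ψ : alternatingGroup α →* G) (t g : G) (a b c d : α) : Prop where
  nd : [a, b, c, d].Nodup
  gt : g * t * g⁻¹ = t * ev ψ (d2 a b c d)
  gw : Commute g (ev ψ (d2 a b c d))

/-- The ordinary case: the element centralises the alternating group on the other points. -/
def SwC (ψ : alternatingGroup α →* G) (t : G) : Prop :=
  ∃ g a b c d, Sw ψ t g a b c d ∧ ∀ σ ∈ altOn ({a, b, c, d}ᶜ : Finset α), Commute g (ev ψ σ)

/-- The exotic case: ten points, and the element induces an automorphism of `A₆` that does not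
preserve three-cycles. -/
def SwX (ψ : alternatingGroup α →* G) (t : G) : Prop :=
  Fintype.card α = 10 ∧ ∃ g a b c d, Sw ψ t g a b c d ∧
    ∀ σ ∈ altOn ({a, b, c, d}ᶜ : Finset α), ∃ τ ∈ altOn ({a, b, c, d}ᶜ : Finset α),
      g * ev ψ σ * g⁻¹ = ev ψ τ ∧ (σ.IsThreeCycle → τ.support.card = 6)

/-- `p` is a double transposition. -/
def IsD2 (p : Perm α) : Prop := ∃ a b c d : α, [a, b, c, d].Nodup ∧ p = d2 a b c d

/-- The wreath base: `f w` is the first coordinate of the double transposition `w`. -/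
structure WB (ψ : alternatingGroup α →* G) (t : G) (f : Perm α → G) : Prop where
  sq : ∀ w, IsD2 w → f w * f w = 1
  ft : ∀ w, IsD2 w → f w * t * (f w)⁻¹ = t * ev ψ w
  eqv : ∀ w, IsD2 w → ∀ a : Perm α, sign a = 1 → ev ψ a * f w * (ev ψ a)⁻¹ = f (a * w * a⁻¹)
  com : ∀ w w', IsD2 w → IsD2 w' → Commute (f w) (f w' * ev ψ w')
  cO : ∀ w, IsD2 w → ∀ k ∈ KA ψ, Commute k t → Odd (orderOf k) → Commute (f w) k

end Group

/-- A statement about the basic configuration. -/
def All (P : ∀ {G : Type u} [Group G] {α : Type} [Fintype α] [DecidableEq α]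
    (_ : alternatingGroup α →* G) (_ : G), Prop) : Prop :=
  ∀ {G : Type u} [Group G] [Finite G] {α : Type} [Fintype α] [DecidableEq α]
    (ψ : alternatingGroup α →* G) (t : G), Bs ψ t → Kit ψ t →
    (∀ g : G, Bs (H7.AA.cj g ψ) (g * t * g⁻¹) ∧ Kit (H7.AA.cj g ψ) (g * t * g⁻¹)) → P ψ t

/-- **KIT** -/
def KitStmt : Prop :=
  ∀ {G : Type u} [Group G] [Finite G] {α : Type} [Fintype α] [DecidableEq α]
    (ψ : alternatingGroup α →* G) (t : G), Bs ψ t →
    Kit ψ t ∧ ∀ g : G, Bs (H7.AA.cj g ψ) (g * t * g⁻¹)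

/-- **KILL**: the wreath base does not occur in an almost simple group. -/
def KillStmt : Prop := All.{u} fun ψ t => ∀ X, Gl X ψ t → ∀ f, ¬ WB ψ t f

/-- **NINE** -/
def NineStmt : Prop := All.{u} fun {_} _ {α} _ _ ψ t => ∀ X, Gl X ψ t → Fintype.card α = 9 →
  (∃ d ρ, D1 ψ t d ρ) → Nonempty (X ≃* alternatingGroup (Fin 11)) ∨ ∃ f, WB ψ t f

/-- **HN** -/
def HNStmt : Prop := All.{u} fun {_} _ {α} _ _ ψ t => ∀ X, Gl X ψ t → Fintype.card α = 10 →
  SwX ψ t ∨ (T1 ψ t ∧ TE ψ t 4) → Spor.IsoHN X ∨ SwC ψ t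

/-- The theorem for `n ≥ 9`. -/
def MainStmt : Prop :=
  ∀ {G : Type u} [Group G] [Finite G] {α : Type} [Fintype α] [DecidableEq α]
    (X : Subgroup G) (ψ : alternatingGroup α →* G) (t : G), Bs ψ t → Gl X ψ t →
    (∃ d ρ, D1 ψ t d ρ) →
    Nonempty (X ≃* alternatingGroup (Fin (Fintype.card α + 2))) ∨
      (Fintype.card α = 10 ∧ Spor.IsoHN X)

end Cfsg.Agent.H63.AN
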