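import Cfsg.Agent.H63.AnDefs2
import Cfsg.Agent.H52.PComponent

/-! The strong `B`-property passes to subgroups. -/

set_option autoImplicit false

namespace Cfsg.Agent.H63.AN

open Cfsg Subgroup

/-- the B-property passes along an isomorphism -/
theorem hasB_equiv {G G' : Type*} [Group G] [Group G'] [Finite G] (e : G ≃* G')
    (h : HasBProperty G) : HasBProperty G' := by
  have : Fact (Nat.Prime 2) := ⟨Nat.prime_two⟩
  intro t' ht'
  obtain ⟨t, rfl⟩ := e.surjective t'
  have ht : orderOf t = 2 := by rw [← ht']; exact (e.orderOf_eq t).symm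
  have hm : (centralizer ({t} : Set G)).map (e : G →* G') = centralizer ({e t} : Set G') := by
    ext y
    obtain ⟨x, rfl⟩ := e.surjective y
    rw [mem_centralizer_singleton_iff, ← map_mul, ← map_mul, e.apply_eq_iff_eq,
      ← mem_centralizer_singleton_iff]
    exact mem_map_iff_mem (f := (e : G →* G')) e.injective
  let f : centralizer ({t} : Set G) ≃* centralizer ({e t} : Set G') :=
    (e.subgroupMap _).trans (MulEquiv.subgroupCongr hm)
  have hc : (centralizer ({e t} : Set G')).subtype.comp f.toMonoidHom =
      e.toMonoidHom.comp (centralizer ({t} : Set G)).subtype := MonoidHom.ext fun _ => rfl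
  have h0 := h t ht
  unfold oddCore at h0 ⊢
  rw [← H52.map_pLayer_equiv (p := 2) f, ← H52.map_pPrimeCore_equiv (p := 2) f,
    ← map_commutator, map_map, hc, ← map_map, ← H52.map_pPrimeCore_equiv (p := 2) e]
  exact map_mono h0

theorem hasB_of_strong {G : Type*} [Group G] [Finite G] (h : HasStrongBProperty G) :
    HasBProperty G :=
  hasB_equiv ((QuotientGroup.quotientBot (G := (⊤ : Subgroup G))).trans topEquiv) (h ⊤ ⊥)

theorem strongB_sub {G : Type*} [Group G] [Finite G] (h : HasStrongBProperty G) (H : Subgroup G) :
    HasStrongBProperty H := fun K N hN => by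
  let e : K ≃* K.map H.subtype := K.equivMapOfInjective _ H.subtype_injective
  have : (N.map e.toMonoidHom).Normal := hN.map _ e.surjective
  exact hasB_equiv (QuotientGroup.congr N (N.map e.toMonoidHom) e rfl).symm
    (h (K.map H.subtype) (N.map e.toMonoidHom))

end Cfsg.Agent.H63.AN
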